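import Cfsg.Agent.H0.EMcL.D
import Cfsg.Agent.H0.MMcLp.Main
set_option maxRecDepth 100000
set_option Elab.async false
set_option linter.unusedSectionVars false
namespace H0.EMcL
open H0 BN 
theorem defs_ok : DefsOK R.p defs 13 := defsOK_of_chk c2
universe u
variable {G : Type u} [Group G] [Finite G] (m0 : Model G) (h0 : m0.R = H6M.MMcL.R)
noncomputable def m : Model G := m0.ext (lg := nat_lit 9) (N := nat_lit 512) (l := H6M.MMcL.nl) h0 nl nl_ok 13 rfl defs defs_ok (by decide +kernel)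
theorem mR : (m m0 h0).R = R := rfl
variable (hb : m0.pst [107, 3, 2, 1, 0] = ⊥) (hc : Nat.card G = 898128000)
include h0 hb hc
theorem base : (m m0 h0).pst [107, 3, 2, 1, 0] = ⊥ := hb
omit hb hc in
theorem geq {x : ℕ} (h : x < 13) : (m m0 h0).g x = m0.g x := m0.ext_g h0 _ _ _ _ _ _ _ h
theorem A_iso : Nonempty (PG 15 H0.MMcLp.B ≃* gen (m m0 h0).g ((lets 15).map (sh 13))) :=
  iso_emb _ 13 (all_take_done (all_take_step (all_take_zero _ ((H0.MMcLp.B.map (sh 13)).map fun r => (r, ([] : List ℕ)))) ((m m0 h0).pairs_of (base m0 h0 hb hc) (Model.via _ (mR m0 h0) (fun R => pairsB R [107, 3, 2, 1, 0] ((((H0.MMcLp.B.map (sh 13)).map fun r => (r, ([] : List ℕ))).drop 0).take 218)) c0))) (by decide +kernel)) (H0.MMcLp.simple (Pres.pg _ _)) ((m m0 h0).ne_of_neB (Model.via _ (mR m0 h0) (fun R => neB R [13] [] 0 70 0) c1)) (by decide +kernel)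
end H0.EMcL
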